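import Mathlib

/-!
# A Vandermonde lemma for commuting endomorphisms of an abelian group
-/

set_option autoImplicit false

namespace Cfsg.Agent.Lib.Helper29.FrobFix

theorem det_apply_eq_zero {M S : Type*} [AddCommGroup M] [CommRing S] {n : ℕ}
    (ι : S →+* Module.End ℤ M) (B : Matrix (Fin n) (Fin n) S) (w : Fin n → M)
    (h : ∀ i, ∑ j, ι (B i j) (w j) = 0) (j : Fin n) : ι B.det (w j) = 0 := by
  classical
  have h1 : ∀ i : Fin n, (B.adjugate * B) j i = if j = i then B.det else 0 := by
    intro i
    rw [Matrix.adjugate_mul, Matrix.smul_apply, Matrix.one_apply]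
    split_ifs <;> simp
  have h2 : ∑ i, ι ((B.adjugate * B) j i) (w i) = ι B.det (w j) := by
    simp only [h1]
    rw [Finset.sum_eq_single j]
    · simp
    · intro b _ hb
      rw [if_neg (Ne.symm hb)]
      simp
    · simp
  rw [← h2]
  have h3 : ∀ i, ι ((B.adjugate * B) j i) (w i) = ∑ t, ι (B.adjugate j t) (ι (B t i) (w i)) := by
    intro i
    rw [Matrix.mul_apply, map_sum, LinearMap.sum_apply]
    refine Finset.sum_congr rfl fun t _ => ?_
    rw [map_mul, Module.End.mul_apply]
  simp only [h3]
  rw [Finset.sum_comm]
  refine Finset.sum_eq_zero fun t _ => ?_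
  rw [← map_sum, h t, map_zero]

theorem vandermonde_inj {M : Type*} [AddCommGroup M] {n : ℕ} (a : Fin n → Module.End ℤ M)
    (hcomm : ∀ i j, a i * a j = a j * a i)
    (hinj : ∀ i j, i ≠ j → Function.Injective (a i - a j)) :
    (∀ w : Fin n → M, (∀ i, ∑ j : Fin n, (a i ^ (j : ℕ)) (w j) = 0) → ∀ j, w j = 0) ∧
    (∀ v : Fin n → M, (∀ j : Fin n, ∑ i, (a i ^ (j : ℕ)) (v i) = 0) → ∀ i, v i = 0) := by
  classical
  let s : Set (Module.End ℤ M) := Set.range a
  have hs : ∀ x ∈ s, ∀ y ∈ s, x * y = y * x := by
    rintro _ ⟨i, rfl⟩ _ ⟨j, rfl⟩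
    exact hcomm i j
  have hmc : IsMulCommutative (Subring.closure s) := Subring.isMulCommutative_closure hs
  let _ : CommRing (Subring.closure s) := { (Subring.closure s).toRing with mul_comm := hmc.is_comm.comm }
  let ι : Subring.closure s →+* Module.End ℤ M := (Subring.closure s).subtype
  let aS : Fin n → Subring.closure s := fun i => ⟨a i, Subring.subset_closure ⟨i, rfl⟩⟩
  have hι : ∀ i, ι (aS i) = a i := fun i => rfl
  have hmul : ∀ x y : Subring.closure s, Function.Injective (ι x) → Function.Injective (ι y) →
      Function.Injective (ι (x * y)) := by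
    intro x y hx hy
    rw [map_mul, Module.End.coe_mul]
    exact hx.comp hy
  have hone : Function.Injective (ι 1) := by
    rw [map_one]
    exact fun x y h => h
  have hdet : Function.Injective (ι (Matrix.vandermonde aS).det) := by
    rw [Matrix.det_vandermonde]
    refine Finset.prod_induction _ (fun x : Subring.closure s => Function.Injective (ι x))
      hmul hone ?_
    intro i _
    refine Finset.prod_induction _ (fun x : Subring.closure s => Function.Injective (ι x))
      hmul hone ?_
    intro j hj
    rw [map_sub, hι, hι]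
    exact hinj j i (ne_of_gt (Finset.mem_Ioi.mp hj))
  constructor
  · intro w hw j
    have := det_apply_eq_zero ι (Matrix.vandermonde aS) w (by
      intro i
      rw [← hw i]
      refine Finset.sum_congr rfl fun j _ => ?_
      rw [Matrix.vandermonde_apply, map_pow, hι]) j
    exact hdet (by rw [this, map_zero])
  · intro v hv i
    have := det_apply_eq_zero ι (Matrix.vandermonde aS).transpose v (by
      intro j
      rw [← hv j]
      refine Finset.sum_congr rfl fun i _ => ?_
      rw [Matrix.transpose_apply, Matrix.vandermonde_apply, map_pow, hι]) i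
    rw [Matrix.det_transpose] at this
    exact hdet (by rw [this, map_zero])

end Cfsg.Agent.Lib.Helper29.FrobFix
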