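import Mathlib
import Cfsg.Agent.Lib.Helper29.FrobVdm

/-!
# Fixed points of Frobenius groups on coprime modules
-/

set_option autoImplicit false

namespace Cfsg.Agent.Lib.Helper29.FrobFix

variable {G V : Type*} [Group G] [AddCommGroup V] [DistribMulAction G V]

/-- fixed points of `S` in `W` -/
def fixIn (S : Subgroup G) (W : AddSubgroup V) : AddSubgroup V where
  carrier := {w | w ∈ W ∧ ∀ s ∈ S, s • w = w}
  add_mem' := by
    rintro a b ⟨ha, ha'⟩ ⟨hb, hb'⟩
    exact ⟨W.add_mem ha hb, fun s hs => by rw [smul_add, ha' s hs, hb' s hs]⟩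
  zero_mem' := ⟨W.zero_mem, fun s _ => smul_zero s⟩
  neg_mem' := by
    rintro a ⟨ha, ha'⟩
    exact ⟨W.neg_mem ha, fun s hs => by rw [smul_neg, ha' s hs]⟩

theorem mem_fixIn {S : Subgroup G} {W : AddSubgroup V} {w : V} :
    w ∈ fixIn S W ↔ w ∈ W ∧ ∀ s ∈ S, s • w = w := Iff.rfl

theorem fixIn_le (S : Subgroup G) (W : AddSubgroup V) : fixIn S W ≤ W := fun _ h => h.1

theorem fixIn_inf (S : Subgroup G) (W X : AddSubgroup V) : fixIn S (W ⊓ X) = fixIn S W ⊓ X := by
  ext w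
  simp only [mem_fixIn, AddSubgroup.mem_inf]
  tauto

theorem eq_zero_of_nsmul [Finite V] {n : ℕ} (hn : n.Coprime (Nat.card V)) {v : V}
    (h : n • v = 0) : v = 0 := by
  have h1 : addOrderOf v ∣ n := addOrderOf_dvd_of_nsmul_eq_zero h
  have h2 : addOrderOf v ∣ Nat.card V := addOrderOf_dvd_natCard v
  have : addOrderOf v = 1 := Nat.eq_one_of_dvd_coprimes hn h1 h2
  exact AddMonoid.addOrderOf_eq_one_iff.mp this

/-- the sum over a finite subgroup, as an endomorphism -/
noncomputable def sig [Finite G] (S : Subgroup G) : V →+ V where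
  toFun v := ∑ᶠ s : S, (s : G) • v
  map_zero' := by simp
  map_add' := by
    intro a b
    simp only [smul_add]
    exact finsum_add_distrib (Set.toFinite _) (Set.toFinite _)

theorem sig_eq [Finite G] (S : Subgroup G) [Fintype S] (v : V) : sig S v = ∑ s : S, (s : G) • v :=
  finsum_eq_sum_of_fintype _

theorem smul_sig [Finite G] (S : Subgroup G) {s : G} (hs : s ∈ S) (v : V) :
    s • sig S v = sig S v := by
  have := Fintype.ofFinite S
  rw [sig_eq, Finset.smul_sum]
  rw [← Equiv.sum_comp (Equiv.mulLeft (⟨s, hs⟩ : S)) (fun x : S => (x : G) • v)]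
  refine Finset.sum_congr rfl fun x _ => ?_
  simp [mul_smul]

theorem sig_of_fixed [Finite G] (S : Subgroup G) {v : V} (h : ∀ s ∈ S, s • v = v) :
    sig S v = Nat.card S • v := by
  have := Fintype.ofFinite S
  rw [sig_eq, Finset.sum_congr rfl (fun (x : S) _ => h x x.2)]
  simp [Nat.card_eq_fintype_card]

theorem sig_sig [Finite G] (S : Subgroup G) (v : V) : sig S (sig S v) = Nat.card S • sig S v :=
  sig_of_fixed S fun _ hs => smul_sig S hs v

theorem sig_mem [Finite G] (S : Subgroup G) {W : AddSubgroup V} (hW : ∀ s ∈ S, ∀ w ∈ W, s • w ∈ W)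
    {w : V} (hw : w ∈ W) : sig S w ∈ W := by
  have := Fintype.ofFinite S
  rw [sig_eq]
  exact W.sum_mem fun s _ => hW s s.2 w hw

theorem sig_mem_fixIn [Finite G] (S : Subgroup G) {W : AddSubgroup V}
    (hW : ∀ s ∈ S, ∀ w ∈ W, s • w ∈ W) {w : V} (hw : w ∈ W) : sig S w ∈ fixIn S W :=
  ⟨sig_mem S hW hw, fun _ hs => smul_sig S hs w⟩

/-- `g` normalising `S` commutes with `sig S` -/
theorem smul_sig_comm [Finite G] (S : Subgroup G) {g : G} (hg : ∀ s ∈ S, g * s * g⁻¹ ∈ S) (v : V) :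
    g • sig S v = sig S (g • v) := by
  have := Fintype.ofFinite S
  rw [sig_eq, sig_eq, Finset.smul_sum]
  let f : S → S := fun s => ⟨g * s * g⁻¹, hg s s.2⟩
  have hf : Function.Bijective f := by
    apply Function.Injective.bijective_of_finite
    intro a b hab
    have : g * (a : G) * g⁻¹ = g * b * g⁻¹ := congrArg Subtype.val hab
    exact Subtype.ext (by simpa using this)
  rw [← hf.sum_comp (fun x : S => (x : G) • g • v)]
  refine Finset.sum_congr rfl fun x _ => ?_
  simp [f, smul_smul]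

/-- commuting termwise -/
theorem smul_sig_comm' [Finite G] (S : Subgroup G) {g : G} {v : V}
    (hg : ∀ s ∈ S, g • s • v = s • g • v) : g • sig S v = sig S (g • v) := by
  have := Fintype.ofFinite S
  rw [sig_eq, sig_eq, Finset.smul_sum]
  exact Finset.sum_congr rfl fun x _ => hg x x.2

/-- splitting along a quasi-idempotent -/
theorem card_split [Finite V] (Eop : V →+ V) (c : ℕ) (hc : c.Coprime (Nat.card V))
    (W : AddSubgroup V) (hW : ∀ w ∈ W, Eop w ∈ W) (hE : ∀ w ∈ W, Eop (Eop w) = c • Eop w) :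
    Nat.card W = Nat.card ↥(W ⊓ (Eop - c • AddMonoidHom.id V).ker) * Nat.card ↥(W ⊓ Eop.ker) := by
  have hm1 : ∀ w, w ∈ (Eop - c • AddMonoidHom.id V).ker ↔ Eop w = c • w := by
    intro w
    rw [AddMonoidHom.mem_ker, AddMonoidHom.sub_apply, sub_eq_zero]
    simp
  rw [← Nat.card_prod]
  apply le_antisymm
  · refine Nat.card_le_card_of_injective
      (fun w : W => ((⟨Eop w, AddSubgroup.mem_inf.2 ⟨hW w w.2, (hm1 _).2 (hE w w.2)⟩⟩,
        ⟨c • (w : V) - Eop w, AddSubgroup.mem_inf.2 ⟨W.sub_mem (W.nsmul_mem w.2 c) (hW w w.2), by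
          rw [AddMonoidHom.mem_ker, map_sub, map_nsmul, hE w w.2, sub_self]⟩⟩) :
        ↥(W ⊓ (Eop - c • AddMonoidHom.id V).ker) × ↥(W ⊓ Eop.ker))) ?_
    intro a b hab
    simp only [Prod.mk.injEq, Subtype.mk.injEq] at hab
    obtain ⟨h1, h2⟩ := hab
    rw [h1] at h2
    have h3 : c • ((a : V) - b) = 0 := by
      rw [smul_sub, sub_eq_zero]
      exact sub_left_injective h2
    exact Subtype.ext (sub_eq_zero.mp (eq_zero_of_nsmul hc h3))
  · refine Nat.card_le_card_of_injective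
      (fun x : ↥(W ⊓ (Eop - c • AddMonoidHom.id V).ker) × ↥(W ⊓ Eop.ker) =>
        (⟨(x.1 : V) + x.2, W.add_mem (AddSubgroup.mem_inf.1 x.1.2).1
          (AddSubgroup.mem_inf.1 x.2.2).1⟩ : W)) ?_
    rintro ⟨⟨a, ha⟩, ⟨b, hb⟩⟩ ⟨⟨a2, ha2⟩, ⟨b2, hb2⟩⟩ hab
    simp only [Subtype.mk.injEq] at hab
    have ha' := (hm1 _).1 (AddSubgroup.mem_inf.1 ha).2
    have ha2' := (hm1 _).1 (AddSubgroup.mem_inf.1 ha2).2
    have hb' := AddMonoidHom.mem_ker.1 (AddSubgroup.mem_inf.1 hb).2
    have hb2' := AddMonoidHom.mem_ker.1 (AddSubgroup.mem_inf.1 hb2).2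
    have h1 : c • (a - a2) = 0 := by
      have := congrArg Eop hab
      rw [map_add, map_add, ha', ha2', hb', hb2', add_zero, add_zero] at this
      rw [smul_sub, this, sub_self]
    have h2 : a = a2 := sub_eq_zero.mp (eq_zero_of_nsmul hc h1)
    subst h2
    have h3 : b = b2 := add_left_cancel hab
    subst h3
    rfl

theorem smul_nsmul' (g : G) (c : ℕ) (v : V) : g • c • v = c • g • v :=
  map_nsmul (DistribSMul.toAddMonoidHom V g) c v

theorem mem_E1 (Eop : V →+ V) (c : ℕ) (w : V) :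
    w ∈ (Eop - c • AddMonoidHom.id V).ker ↔ Eop w = c • w := by
  rw [AddMonoidHom.mem_ker, AddMonoidHom.sub_apply, sub_eq_zero]
  simp

/-- the running hypotheses -/
structure Hyp [Finite G] [Finite V] (R K : Subgroup G) (W : AddSubgroup V) : Prop where
  rk : ∀ r ∈ R, ∀ k ∈ K, r * k * r⁻¹ ∈ K
  fpf : ∀ r ∈ R, r ≠ 1 → ∀ k ∈ K, r * k = k * r → k = 1
  solv : ∀ L : Subgroup G, L ≤ K → L ≠ ⊥ → ⁅L, L⁆ ≠ L
  kW : ∀ k ∈ K, ∀ w ∈ W, k • w ∈ W
  rW : ∀ r ∈ R, ∀ w ∈ W, r • w ∈ W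
  copK : (Nat.card K).Coprime (Nat.card V)
  copR : (Nat.card R).Coprime (Nat.card V)
  fix : ∀ w ∈ W, (∀ k ∈ K, k • w = w) → w = 0

variable [Finite G] [Finite V]

theorem Hyp.mono {R K : Subgroup G} {W W' : AddSubgroup V} (h : Hyp R K W) (hle : W' ≤ W)
    (hk : ∀ k ∈ K, ∀ w ∈ W', k • w ∈ W') (hr : ∀ r ∈ R, ∀ w ∈ W', r • w ∈ W') : Hyp R K W' :=
  { h with
    kW := hk
    rW := hr
    fix := fun w hw => h.fix w (hle hw) }

theorem Hyp.split {R K : Subgroup G} {W : AddSubgroup V} (h : Hyp R K W) (Eop : V →+ V) (c : ℕ)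
    (hc : c.Coprime (Nat.card V)) (hW : ∀ w ∈ W, Eop w ∈ W)
    (hE : ∀ w ∈ W, Eop (Eop w) = c • Eop w)
    (hK : ∀ k ∈ K, ∀ w ∈ W, Eop (k • w) = k • Eop w)
    (hR : ∀ r ∈ R, ∀ w ∈ W, Eop (r • w) = r • Eop w) :
    Hyp R K (W ⊓ (Eop - c • AddMonoidHom.id V).ker) ∧ Hyp R K (W ⊓ Eop.ker) ∧
    (Nat.card ↥(W ⊓ (Eop - c • AddMonoidHom.id V).ker) =
        Nat.card (fixIn R (W ⊓ (Eop - c • AddMonoidHom.id V).ker)) ^ Nat.card R →
      Nat.card ↥(W ⊓ Eop.ker) = Nat.card (fixIn R (W ⊓ Eop.ker)) ^ Nat.card R →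
      Nat.card W = Nat.card (fixIn R W) ^ Nat.card R) := by
  refine ⟨h.mono inf_le_left ?_ ?_, h.mono inf_le_left ?_ ?_, ?_⟩
  · intro k hk w hw
    rw [AddSubgroup.mem_inf, mem_E1] at hw ⊢
    exact ⟨h.kW k hk w hw.1, by rw [hK k hk w hw.1, hw.2, smul_nsmul']⟩
  · intro k hk w hw
    rw [AddSubgroup.mem_inf, mem_E1] at hw ⊢
    exact ⟨h.rW k hk w hw.1, by rw [hR k hk w hw.1, hw.2, smul_nsmul']⟩
  · intro k hk w hw
    rw [AddSubgroup.mem_inf, AddMonoidHom.mem_ker] at hw ⊢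
    exact ⟨h.kW k hk w hw.1, by rw [hK k hk w hw.1, hw.2, smul_zero]⟩
  · intro k hk w hw
    rw [AddSubgroup.mem_inf, AddMonoidHom.mem_ker] at hw ⊢
    exact ⟨h.rW k hk w hw.1, by rw [hR k hk w hw.1, hw.2, smul_zero]⟩
  · intro h1 h2
    rw [card_split Eop c hc W hW hE, h1, h2, ← mul_pow, fixIn_inf, fixIn_inf,
      ← card_split Eop c hc (fixIn R W) ?_ ?_]
    · intro w hw
      exact ⟨hW w hw.1, fun r hr => by rw [← hR r hr w hw.1, hw.2 r hr]⟩
    · intro w hw
      exact hE w hw.1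

/-- Galois descent by Vandermonde -/
theorem base_case (T : Subgroup G) (W0 : AddSubgroup V) (k : G)
    (hT : ∀ t ∈ T, ∀ w ∈ W0, t • w ∈ W0)
    (hk : ∀ t ∈ T, ∀ w ∈ W0, (t * k * t⁻¹) • w ∈ W0)
    (hcomm : ∀ t ∈ T, ∀ t' ∈ T, ∀ w ∈ W0,
      (t * k * t⁻¹) • (t' * k * t'⁻¹) • w = (t' * k * t'⁻¹) • (t * k * t⁻¹) • w)
    (hinj : ∀ t ∈ T, ∀ t' ∈ T, t ≠ t' → ∀ w ∈ W0,
      (t * k * t⁻¹) • w = (t' * k * t'⁻¹) • w → w = 0) :
    Nat.card W0 = Nat.card (fixIn T W0) ^ Nat.card T := by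
  classical
  have := Fintype.ofFinite T
  set n := Nat.card T with hn
  let e : Fin n ≃ T := (Finite.equivFin T).symm
  obtain ⟨c, hc⟩ : ∃ c : Fin n → G, ∀ i, c i = (e i : G) * k * (e i : G)⁻¹ := ⟨_, fun _ => rfl⟩
  let a : Fin n → Module.End ℤ W0 := fun i => AddMonoidHom.toIntLinearMap
    { toFun := fun w => ⟨c i • (w : V), by rw [hc]; exact hk _ (e i).2 _ w.2⟩
      map_zero' := by simp
      map_add' := fun x y => by simp [smul_add] }
  have ha : ∀ i (w : W0), ((a i w : W0) : V) = c i • (w : V) := fun i w => rfl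
  have hapow : ∀ i (j : ℕ) (w : W0), (((a i ^ j) w : W0) : V) = c i ^ j • (w : V) := by
    intro i j
    induction j with
    | zero => intro w; simp
    | succ j ih =>
      intro w
      rw [pow_succ', Module.End.mul_apply, ha, ih, pow_succ']
      exact (mul_smul _ _ _).symm
  have hcpow : ∀ i (j : ℕ), c i ^ j = (e i : G) * k ^ j * (e i : G)⁻¹ := fun i j => by
    rw [hc]; exact conj_pow
  have hkpow : ∀ (j : ℕ) (w : V), w ∈ W0 → k ^ j • w ∈ W0 := by
    intro j
    induction j with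
    | zero => intro w hw; simpa using hw
    | succ j ih =>
      intro w hw
      rw [pow_succ', mul_smul]
      have := hk 1 T.one_mem _ (ih w hw)
      simpa using this
  obtain ⟨hv1, hv2⟩ := vandermonde_inj a
    (by
      intro i j
      ext w
      rw [Module.End.mul_apply, Module.End.mul_apply, ha, ha, ha, ha, hc, hc]
      exact hcomm _ (e i).2 _ (e j).2 _ w.2)
    (by
      intro i j hij
      rw [injective_iff_map_eq_zero]
      intro w hw
      have h1 : c i • (w : V) = c j • (w : V) := by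
        have := congrArg (Subtype.val) hw
        rw [LinearMap.sub_apply] at this
        simpa [ha, sub_eq_zero] using this
      rw [hc, hc] at h1
      have h2 := hinj _ (e i).2 _ (e j).2
        (fun h => hij (e.injective (Subtype.ext h))) _ w.2 h1
      exact Subtype.ext h2)
  have hfun : Nat.card (Fin n → fixIn T W0) = Nat.card (fixIn T W0) ^ n := by
    rw [Nat.card_fun, Nat.card_fin]
  rw [← hfun]
  apply le_antisymm
  · -- Ψ
    refine Nat.card_le_card_of_injective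
      (fun w : W0 => fun j : Fin n =>
        (⟨sig T (k ^ (j : ℕ) • (w : V)), sig_mem_fixIn T hT (hkpow j _ w.2)⟩ : fixIn T W0)) ?_
    intro w w' hww
    have h1 : ∀ j : Fin n, sig T (k ^ (j : ℕ) • ((w : V) - w')) = 0 := by
      intro j
      have := congrArg Subtype.val (congrFun hww j)
      simp only at this
      rw [smul_sub, map_sub, this, sub_self]
    have hu : (w : V) - w' ∈ W0 := W0.sub_mem w.2 w'.2
    have h2 := hv2 (fun i => ⟨(e i : G) • ((w : V) - w'), hT _ (e i).2 _ hu⟩) (by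
      intro j
      apply Subtype.ext
      rw [AddSubmonoidClass.coe_finsetSum, ZeroMemClass.coe_zero, ← h1 j, sig_eq,
        ← Equiv.sum_comp e]
      refine Finset.sum_congr rfl fun i _ => ?_
      rw [hapow, hcpow]
      simp [smul_smul])
    have h3 := congrArg Subtype.val (h2 (e.symm 1))
    simp only [Equiv.apply_symm_apply, OneMemClass.coe_one, one_smul, AddSubgroup.coe_zero] at h3
    exact Subtype.ext (sub_eq_zero.mp h3)
  · -- Φ
    refine Nat.card_le_card_of_injective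
      (fun w : Fin n → fixIn T W0 =>
        (⟨∑ j : Fin n, k ^ (j : ℕ) • ((w j : V)), W0.sum_mem fun j _ => hkpow j _ (w j).2.1⟩ : W0)) ?_
    intro w w' hww
    have h1 : ∑ j : Fin n, k ^ (j : ℕ) • ((w j : V) - w' j) = 0 := by
      have := congrArg Subtype.val hww
      simp only at this
      simp only [smul_sub]
      rw [Finset.sum_sub_distrib, this, sub_self]
    have h2 := hv1 (fun j => ⟨(w j : V) - w' j, W0.sub_mem (w j).2.1 (w' j).2.1⟩) (by
      intro i
      apply Subtype.ext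
      rw [AddSubmonoidClass.coe_finsetSum, ZeroMemClass.coe_zero]
      have h3 := congrArg (fun x => (e i : G) • x) h1
      simp only [smul_zero, Finset.smul_sum] at h3
      rw [← h3]
      refine Finset.sum_congr rfl fun j _ => ?_
      rw [hapow, hcpow]
      have h4 : (e i : G)⁻¹ • ((w j : V) - w' j) = (w j : V) - w' j := by
        rw [smul_sub, (w j).2.2 _ (T.inv_mem (e i).2), (w' j).2.2 _ (T.inv_mem (e i).2)]
      rw [mul_smul, mul_smul, h4])
    funext j
    exact Subtype.ext (sub_eq_zero.mp (congrArg Subtype.val (h2 j)))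

end Cfsg.Agent.Lib.Helper29.FrobFix
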