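import Mathlib
import Cfsg.Agent.Lib.Helper29.FrobFix

set_option autoImplicit false
set_option linter.unusedSectionVars false

namespace Cfsg.Agent.Lib.Helper29.FrobFix

variable {G V : Type*} [Group G] [AddCommGroup V] [DistribMulAction G V] [Finite G] [Finite V]

/-- a maximal subgroup of `K` with fixed points -/
theorem exists_max_fix (K : Subgroup G) (W : AddSubgroup V) (hW : W ≠ ⊥) :
    ∃ H : Subgroup G, H ≤ K ∧ (∃ w ∈ W, w ≠ 0 ∧ ∀ h ∈ H, h • w = w) ∧
      ∀ w ∈ W, w ≠ 0 → (∀ h ∈ H, h • w = w) → ∀ k ∈ K, k • w = w → k ∈ H := by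
  classical
  obtain ⟨w0, hw0, hw0'⟩ : ∃ w ∈ W, w ≠ 0 := by
    by_contra hcon
    push Not at hcon
    exact hW ((AddSubgroup.eq_bot_iff_forall _).2 hcon)
  let P := {H : Subgroup G // H ≤ K ∧ ∃ w ∈ W, w ≠ 0 ∧ ∀ h ∈ H, h • w = w}
  have : Nonempty P := ⟨⟨⊥, bot_le, w0, hw0, hw0', fun h hh => by
    rw [Subgroup.mem_bot] at hh; rw [hh, one_smul]⟩⟩
  obtain ⟨⟨H, hHK, hH⟩, hmax⟩ := Finite.exists_max (fun H : P => Nat.card H.1)
  refine ⟨H, hHK, hH, ?_⟩
  intro w hw hw0 hHw k hk hkw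
  have hle : H ≤ K ⊓ MulAction.stabilizer G w :=
    le_inf hHK fun h hh => MulAction.mem_stabilizer_iff.2 (hHw h hh)
  have h2 := hmax ⟨K ⊓ MulAction.stabilizer G w, inf_le_left, w, hw, hw0,
    fun h hh => MulAction.mem_stabilizer_iff.1 hh.2⟩
  have h3 := Subgroup.eq_of_le_of_card_ge hle h2
  rw [h3]
  exact ⟨hk, MulAction.mem_stabilizer_iff.2 hkw⟩

theorem mem_normalizer_of_conj_mem (H : Subgroup G) {r : G} (hr : ∀ h ∈ H, r * h * r⁻¹ ∈ H) :
    r ∈ Subgroup.normalizer (H : Set G) := by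
  rw [Subgroup.mem_normalizer_iff]
  intro h
  refine ⟨hr h, fun hh => ?_⟩
  let f : H → H := fun s => ⟨r * s * r⁻¹, hr s s.2⟩
  have hf : Function.Bijective f := by
    apply Function.Injective.bijective_of_finite
    intro a b hab
    have : r * (a : G) * r⁻¹ = r * b * r⁻¹ := congrArg Subtype.val hab
    exact Subtype.ext (by simpa using this)
  obtain ⟨s, hs⟩ := hf.2 ⟨_, hh⟩
  have : r * (s : G) * r⁻¹ = r * h * r⁻¹ := congrArg Subtype.val hs
  have h2 : (s : G) = h := by simpa using this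
  rw [← h2]
  exact s.2

/-- the operator `∑ r, r σ_H r⁻¹` -/
noncomputable def eop (R H : Subgroup G) : V →+ V where
  toFun v := ∑ᶠ r : R, (r : G) • sig H ((r : G)⁻¹ • v)
  map_zero' := by simp
  map_add' := by
    intro a b
    simp only [smul_add, map_add]
    exact finsum_add_distrib (Set.toFinite _) (Set.toFinite _)

theorem eop_eq (R H : Subgroup G) [Fintype R] (v : V) :
    eop R H v = ∑ r : R, (r : G) • sig H ((r : G)⁻¹ • v) :=
  finsum_eq_sum_of_fintype _

theorem eop_smul (R H : Subgroup G) {x : G} (hx : x ∈ R) (v : V) :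
    eop R H (x • v) = x • eop R H v := by
  have := Fintype.ofFinite R
  rw [eop_eq, eop_eq, Finset.smul_sum,
    ← Equiv.sum_comp (Equiv.mulLeft (⟨x, hx⟩ : R))
      (fun r : R => (r : G) • sig H ((r : G)⁻¹ • x • v))]
  refine Finset.sum_congr rfl fun r _ => ?_
  simp [smul_smul, mul_assoc]

/-- local situation: `K` acts commutatively on `W`, `H` maximal with fixed points -/
structure Loc (R K H : Subgroup G) (W : AddSubgroup V) : Prop extends Hyp R K W where
  hC : ∀ a ∈ K, ∀ b ∈ K, ∀ w ∈ W, a • b • w = b • a • w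
  hHK : H ≤ K
  hM : ∀ w ∈ W, w ≠ 0 → (∀ h ∈ H, h • w = w) → ∀ k ∈ K, k • w = w → k ∈ H

namespace Loc

variable {R K H : Subgroup G} {W : AddSubgroup V}

theorem hW (L : Loc R K H W) : ∀ h ∈ H, ∀ w ∈ W, h • w ∈ W := fun h hh => L.kW h (L.hHK hh)

theorem sig_smul (L : Loc R K H W) {k : G} (hk : k ∈ K) {w : V} (hw : w ∈ W) :
    sig H (k • w) = k • sig H w :=
  (smul_sig_comm' H fun s hs => L.hC k hk s (L.hHK hs) w hw).symm

theorem kill (L : Loc R K H W) {r : G} (hr : r ∈ R)
    (hrT : r ∉ R ⊓ Subgroup.normalizer (H : Set G)) {w : V} (hw : w ∈ fixIn H W) :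
    sig H (r • w) = 0 := by
  by_contra hne
  apply hrT
  refine ⟨hr, mem_normalizer_of_conj_mem H fun h hh => ?_⟩
  have hrw : r • w ∈ W := L.rW r hr w hw.1
  refine L.hM _ (sig_mem H L.hW hrw) hne (fun s hs => smul_sig H hs _) _
    (L.rk r hr h (L.hHK hh)) ?_
  rw [← L.sig_smul (L.rk r hr h (L.hHK hh)) hrw]
  congr 1
  rw [smul_smul, inv_mul_cancel_right, mul_smul, hw.2 h hh]

theorem smul_mem_fix_of_K (L : Loc R K H W) {k : G} (hk : k ∈ K) {w : V} (hw : w ∈ fixIn H W) :
    k • w ∈ fixIn H W :=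
  ⟨L.kW k hk w hw.1, fun h hh => by rw [L.hC h (L.hHK hh) k hk w hw.1, hw.2 h hh]⟩

theorem smul_mem_fix_of_T (L : Loc R K H W) {t : G}
    (ht : t ∈ R ⊓ Subgroup.normalizer (H : Set G)) {w : V} (hw : w ∈ fixIn H W) :
    t • w ∈ fixIn H W := by
  refine ⟨L.rW t ht.1 w hw.1, fun h hh => ?_⟩
  have h1 : t⁻¹ * h * t ∈ H := by
    have := (Subgroup.mem_normalizer_iff.1 (Subgroup.inv_mem _ ht.2) h).1 hh
    simpa using this
  have h2 : h • t • w = t • (t⁻¹ * h * t) • w := by
    simp [smul_smul, mul_assoc]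
  rw [h2, hw.2 _ h1]

theorem eop_fix (L : Loc R K H W) {w : V} (hw : w ∈ fixIn H W) :
    eop R H w = (Nat.card ↥(R ⊓ Subgroup.normalizer (H : Set G)) * Nat.card H) • w := by
  classical
  have := Fintype.ofFinite R
  set T := R ⊓ Subgroup.normalizer (H : Set G) with hT
  have h1 : ∀ r : R, (r : G) • sig H ((r : G)⁻¹ • w) =
      if r ∈ T.subgroupOf R then Nat.card H • w else 0 := by
    intro r
    split_ifs with hr
    · have hr' : (r : G)⁻¹ ∈ T := T.inv_mem (Subgroup.mem_subgroupOf.1 hr)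
      rw [sig_of_fixed H (L.smul_mem_fix_of_T hr' hw).2, smul_nsmul', smul_smul,
        mul_inv_cancel, one_smul]
    · have hr' : (r : G)⁻¹ ∉ T := fun h => hr (Subgroup.mem_subgroupOf.2 (by
        simpa using T.inv_mem h))
      rw [L.kill (R.inv_mem r.2) hr' hw, smul_zero]
  rw [eop_eq, Finset.sum_congr rfl (fun r _ => h1 r), ← Finset.sum_filter, Finset.sum_const,
    mul_smul]
  congr 1
  rw [← Nat.card_congr (Subgroup.subgroupOfEquivOfLe (inf_le_left : T ≤ R)).toEquiv,
    Nat.card_eq_fintype_card, ← Fintype.card_subtype]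

theorem eop_mem (L : Loc R K H W) {w : V} (hw : w ∈ W) : eop R H w ∈ W := by
  have := Fintype.ofFinite R
  rw [eop_eq]
  exact W.sum_mem fun r _ => L.rW r r.2 _ (sig_mem H L.hW (L.rW _ (R.inv_mem r.2) _ hw))

theorem eop_eop (L : Loc R K H W) {w : V} (hw : w ∈ W) :
    eop R H (eop R H w) =
      (Nat.card ↥(R ⊓ Subgroup.normalizer (H : Set G)) * Nat.card H) • eop R H w := by
  have := Fintype.ofFinite R
  conv_lhs => rw [eop_eq R H w]
  conv_rhs => rw [eop_eq R H w]
  rw [map_sum, Finset.smul_sum]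
  refine Finset.sum_congr rfl fun r _ => ?_
  rw [eop_smul R H r.2, L.eop_fix (sig_mem_fixIn H L.hW (L.rW _ (R.inv_mem r.2) _ hw)),
    smul_nsmul']

theorem eop_smul_K (L : Loc R K H W) {k : G} (hk : k ∈ K) {w : V} (hw : w ∈ W) :
    eop R H (k • w) = k • eop R H w := by
  have := Fintype.ofFinite R
  rw [eop_eq, eop_eq, Finset.smul_sum]
  refine Finset.sum_congr rfl fun r _ => ?_
  have hk' : (r : G)⁻¹ * k * (r : G) ∈ K := by
    have := L.rk _ (R.inv_mem r.2) k hk
    simpa using this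
  have h1 : (r : G)⁻¹ • k • w = ((r : G)⁻¹ * k * (r : G)) • (r : G)⁻¹ • w := by
    simp [smul_smul, mul_assoc]
  rw [h1, L.sig_smul hk' (L.rW _ (R.inv_mem r.2) _ hw), smul_smul, smul_smul]
  congr 1
  group

theorem copH (L : Loc R K H W) : (Nat.card H).Coprime (Nat.card V) :=
  Nat.Coprime.coprime_dvd_left (Subgroup.card_dvd_of_le L.hHK) L.copK

theorem copT (L : Loc R K H W) :
    (Nat.card ↥(R ⊓ Subgroup.normalizer (H : Set G))).Coprime (Nat.card V) :=
  Nat.Coprime.coprime_dvd_left (Subgroup.card_dvd_of_le inf_le_left) L.copR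

theorem copc (L : Loc R K H W) :
    (Nat.card ↥(R ⊓ Subgroup.normalizer (H : Set G)) * Nat.card H).Coprime (Nat.card V) :=
  Nat.Coprime.mul_left L.copT L.copH

theorem smul_sig_T (_L : Loc R K H W) {t : G}
    (ht : t ∈ R ⊓ Subgroup.normalizer (H : Set G)) (v : V) : t • sig H v = sig H (t • v) :=
  smul_sig_comm H (fun s hs => (Subgroup.mem_normalizer_iff.1 ht.2 s).1 hs) v

theorem card_fix_eq (L : Loc R K H W)
    (hEc : ∀ w ∈ W, eop R H w =
      (Nat.card ↥(R ⊓ Subgroup.normalizer (H : Set G)) * Nat.card H) • w) :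
    Nat.card (fixIn R W) =
      Nat.card (fixIn (R ⊓ Subgroup.normalizer (H : Set G)) (fixIn H W)) := by
  classical
  have := Fintype.ofFinite R
  set T := R ⊓ Subgroup.normalizer (H : Set G) with hT
  apply le_antisymm
  · refine Nat.card_le_card_of_injective
      (fun v : fixIn R W => (⟨sig H (v : V), sig_mem_fixIn H L.hW v.2.1, fun t ht => by
        rw [L.smul_sig_T ht, v.2.2 t ht.1]⟩ : fixIn T (fixIn H W))) ?_
    intro v v' hvv
    have h1 : sig H ((v : V) - v') = 0 := by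
      have := congrArg Subtype.val hvv
      simp only at this
      rw [map_sub, this, sub_self]
    have hu : (v : V) - v' ∈ fixIn R W := (fixIn R W).sub_mem v.2 v'.2
    have h2 : eop R H ((v : V) - v') = 0 := by
      rw [eop_eq]
      refine Finset.sum_eq_zero fun r _ => ?_
      rw [hu.2 _ (R.inv_mem r.2), h1, smul_zero]
    rw [hEc _ hu.1] at h2
    exact Subtype.ext (sub_eq_zero.mp (eq_zero_of_nsmul L.copc h2))
  · refine Nat.card_le_card_of_injective
      (fun w : fixIn T (fixIn H W) =>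
        (⟨sig R (w : V), sig_mem_fixIn R L.rW w.2.1.1⟩ : fixIn R W)) ?_
    intro w w' hww
    have h1 : sig R ((w : V) - w') = 0 := by
      have := congrArg Subtype.val hww
      simp only at this
      rw [map_sub, this, sub_self]
    have hu : (w : V) - w' ∈ fixIn T (fixIn H W) := (fixIn T (fixIn H W)).sub_mem w.2 w'.2
    have h2 : eop R H ((w : V) - w') = 0 := by
      have h3 : eop R H ((w : V) - w') = sig H (sig R ((w : V) - w')) := by
        rw [L.eop_fix hu.1, sig_eq R, map_sum]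
        have h4 : ∀ r : R, sig H ((r : G) • ((w : V) - w')) =
            if r ∈ T.subgroupOf R then Nat.card H • ((w : V) - w') else 0 := by
          intro r
          split_ifs with hr
          · rw [hu.2 _ (Subgroup.mem_subgroupOf.1 hr), sig_of_fixed H hu.1.2]
          · exact L.kill r.2 (fun h => hr (Subgroup.mem_subgroupOf.2 h)) hu.1
        rw [Finset.sum_congr rfl (fun r _ => h4 r), ← Finset.sum_filter, Finset.sum_const,
          mul_smul]
        congr 1
        rw [← Nat.card_congr (Subgroup.subgroupOfEquivOfLe (inf_le_left : T ≤ R)).toEquiv,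
          Nat.card_eq_fintype_card, ← Fintype.card_subtype]
      rw [h3, h1, map_zero]
    rw [L.eop_fix hu.1] at h2
    exact Subtype.ext (sub_eq_zero.mp (eq_zero_of_nsmul L.copc h2))

theorem card_W_eq (L : Loc R K H W)
    (hEc : ∀ w ∈ W, eop R H w =
      (Nat.card ↥(R ⊓ Subgroup.normalizer (H : Set G)) * Nat.card H) • w) :
    Nat.card W = Nat.card (fixIn H W) ^
      Nat.card (R ⧸ (R ⊓ Subgroup.normalizer (H : Set G)).subgroupOf R) := by
  classical
  have := Fintype.ofFinite R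
  set T := R ⊓ Subgroup.normalizer (H : Set G) with hT
  have := Fintype.ofFinite (R ⧸ T.subgroupOf R)
  rw [← Nat.card_fun]
  apply le_antisymm
  · refine Nat.card_le_card_of_injective
      (fun v : W => fun q : R ⧸ T.subgroupOf R =>
        (⟨sig H (((q.out : R) : G)⁻¹ • (v : V)),
          sig_mem_fixIn H L.hW (L.rW _ (R.inv_mem q.out.2) _ v.2)⟩ : fixIn H W)) ?_
    intro v v' hvv
    have h1 : ∀ q : R ⧸ T.subgroupOf R, sig H (((q.out : R) : G)⁻¹ • ((v : V) - v')) = 0 := by
      intro q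
      have := congrArg Subtype.val (congrFun hvv q)
      simp only at this
      rw [smul_sub, map_sub, this, sub_self]
    have hu : (v : V) - v' ∈ W := W.sub_mem v.2 v'.2
    have h2 : eop R H ((v : V) - v') = 0 := by
      rw [eop_eq]
      refine Finset.sum_eq_zero fun r _ => ?_
      have ht : ((QuotientGroup.mk r : R ⧸ T.subgroupOf R).out)⁻¹ * r ∈ T.subgroupOf R := by
        rw [← QuotientGroup.eq, QuotientGroup.out_eq']
      have ht' : (r : G)⁻¹ * (((QuotientGroup.mk r : R ⧸ T.subgroupOf R).out : R) : G) ∈ T := by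
        have := T.inv_mem (Subgroup.mem_subgroupOf.1 ht)
        simpa using this
      have h3 : (r : G)⁻¹ • ((v : V) - v') =
          ((r : G)⁻¹ * (((QuotientGroup.mk r : R ⧸ T.subgroupOf R).out : R) : G)) •
            (((QuotientGroup.mk r : R ⧸ T.subgroupOf R).out : R) : G)⁻¹ • ((v : V) - v') := by
        rw [smul_smul, mul_inv_cancel_right]
      rw [h3, ← L.smul_sig_T ht', h1, smul_zero, smul_zero]
    rw [hEc _ hu] at h2
    exact Subtype.ext (sub_eq_zero.mp (eq_zero_of_nsmul L.copc h2))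
  · refine Nat.card_le_card_of_injective
      (fun g : (R ⧸ T.subgroupOf R) → fixIn H W =>
        (⟨∑ q : R ⧸ T.subgroupOf R, ((q.out : R) : G) • (g q : V),
          W.sum_mem fun q _ => L.rW _ q.out.2 _ (g q).2.1⟩ : W)) ?_
    intro g g' hgg
    have h1 : ∑ q : R ⧸ T.subgroupOf R, ((q.out : R) : G) • ((g q : V) - g' q) = 0 := by
      have := congrArg Subtype.val hgg
      simp only at this
      simp only [smul_sub]
      rw [Finset.sum_sub_distrib, this, sub_self]
    funext q0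
    have hu : ∀ q, (g q : V) - g' q ∈ fixIn H W := fun q => (fixIn H W).sub_mem (g q).2 (g' q).2
    have h2 := congrArg (fun x => sig H (((q0.out : R) : G)⁻¹ • x)) h1
    simp only [smul_zero, map_zero, Finset.smul_sum, map_sum] at h2
    rw [Finset.sum_eq_single q0] at h2
    · rw [smul_smul, inv_mul_cancel, one_smul, sig_of_fixed H (hu q0).2] at h2
      exact Subtype.ext (sub_eq_zero.mp (eq_zero_of_nsmul L.copH h2))
    · intro q _ hq
      rw [smul_smul]
      refine L.kill (R.mul_mem (R.inv_mem q0.out.2) q.out.2) ?_ (hu q)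
      intro hmem
      apply hq
      have : (q0.out)⁻¹ * q.out ∈ T.subgroupOf R := Subgroup.mem_subgroupOf.2 hmem
      rw [← QuotientGroup.eq, QuotientGroup.out_eq', QuotientGroup.out_eq'] at this
      exact this.symm
    · intro h
      exact absurd (Finset.mem_univ _) h

theorem mem_H_of_comm (L : Loc R K H W) {x : G}
    (hx : x ∈ R ⊓ Subgroup.normalizer (H : Set G)) (hx1 : x ≠ 1) {k : G} (hk : k ∈ K)
    (h : k⁻¹ * (x * k * x⁻¹) ∈ H) : k ∈ H := by
  have hn : ∀ s ∈ H, x * s * x⁻¹ ∈ H := fun s hs => (Subgroup.mem_normalizer_iff.1 hx.2 s).1 hs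
  have key : ∀ a ∈ K, ∀ b ∈ K, a⁻¹ * (x * a * x⁻¹) = b⁻¹ * (x * b * x⁻¹) → a = b := by
    intro a ha b hb hab
    have h1 : x * (a * b⁻¹) = (a * b⁻¹) * x := by
      have h2 : b * a⁻¹ * x * a = x * b := by
        have := congrArg (fun y => b * y * x) hab
        simpa [mul_assoc] using this
      have h3 : x * a * b⁻¹ = a * b⁻¹ * x := by
        have : x * a = a * b⁻¹ * (x * b) := by
          rw [← h2]; group
        rw [this]; group
      rw [← mul_assoc, h3]
    have h4 := L.fpf x hx.1 hx1 _ (K.mul_mem ha (K.inv_mem hb)) h1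
    exact mul_inv_eq_one.mp h4
  let f : H → H := fun s => ⟨(s : G)⁻¹ * (x * s * x⁻¹), H.mul_mem (H.inv_mem s.2) (hn s s.2)⟩
  have hf : Function.Bijective f := by
    apply Function.Injective.bijective_of_finite
    intro a b hab
    exact Subtype.ext (key a (L.hHK a.2) b (L.hHK b.2) (congrArg Subtype.val hab))
  obtain ⟨s, hs⟩ := hf.2 ⟨_, h⟩
  have := key s (L.hHK s.2) k hk (congrArg Subtype.val hs)
  rw [← this]
  exact s.2

theorem card_fix_H (L : Loc R K H W) (hex : ∃ w ∈ W, w ≠ 0 ∧ ∀ h ∈ H, h • w = w) :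
    Nat.card (fixIn H W) =
      Nat.card (fixIn (R ⊓ Subgroup.normalizer (H : Set G)) (fixIn H W)) ^
        Nat.card ↥(R ⊓ Subgroup.normalizer (H : Set G)) := by
  obtain ⟨w0, hw0, hw0', hw0H⟩ := hex
  obtain ⟨k, hk, hkH⟩ : ∃ k ∈ K, k ∉ H := by
    by_contra hcon
    push Not at hcon
    exact hw0' (L.fix w0 hw0 fun k hk => hw0H k (hcon k hk))
  have hc : ∀ t ∈ R ⊓ Subgroup.normalizer (H : Set G), t * k * t⁻¹ ∈ K :=
    fun t ht => L.rk t ht.1 k hk
  refine base_case _ _ k (fun t ht w hw => L.smul_mem_fix_of_T ht hw)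
    (fun t ht w hw => L.smul_mem_fix_of_K (hc t ht) hw)
    (fun t ht t' ht' w hw => L.hC _ (hc t ht) _ (hc t' ht') w hw.1) ?_
  intro t ht t' ht' htt w hw heq
  by_contra hw0
  apply hkH
  have h1 : (t' * k * t'⁻¹)⁻¹ * (t * k * t⁻¹) ∈ H := by
    refine L.hM w hw.1 hw0 hw.2 _ (K.mul_mem (K.inv_mem (hc t' ht')) (hc t ht)) ?_
    rw [mul_smul, heq, smul_smul, inv_mul_cancel, one_smul]
  have hx : t'⁻¹ * t ∈ R ⊓ Subgroup.normalizer (H : Set G) :=
    Subgroup.mul_mem _ (Subgroup.inv_mem _ ht') ht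
  refine L.mem_H_of_comm hx (fun h => htt (by
    have := congrArg (fun y => t' * y) h
    simpa using this)) hk ?_
  have h2 := (Subgroup.mem_normalizer_iff.1 (Subgroup.inv_mem _ ht'.2) _).1 h1
  convert h2 using 1
  group

theorem final (L : Loc R K H W) (hex : ∃ w ∈ W, w ≠ 0 ∧ ∀ h ∈ H, h • w = w)
    (hEc : ∀ w ∈ W, eop R H w =
      (Nat.card ↥(R ⊓ Subgroup.normalizer (H : Set G)) * Nat.card H) • w) :
    Nat.card W = Nat.card (fixIn R W) ^ Nat.card R := by
  rw [L.card_W_eq hEc, L.card_fix_H hex, L.card_fix_eq hEc, ← pow_mul,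
    Subgroup.card_eq_card_quotient_mul_card_subgroup
      ((R ⊓ Subgroup.normalizer (H : Set G)).subgroupOf R),
    Nat.card_congr (Subgroup.subgroupOfEquivOfLe
      (inf_le_left : R ⊓ Subgroup.normalizer (H : Set G) ≤ R)).toEquiv, mul_comm]

end Loc

end Cfsg.Agent.Lib.Helper29.FrobFix
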