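import Mathlib
import Cfsg.Agent.Lib.Helper29.FrobFix2

set_option autoImplicit false
set_option linter.unusedSectionVars false

namespace Cfsg.Agent.Lib.Helper29.FrobFix

open scoped commutatorElement

variable {G V : Type*} [Group G] [AddCommGroup V] [DistribMulAction G V] [Finite G] [Finite V]

theorem conj_mem_commutator (K : Subgroup G) {g : G} (hg : ∀ k ∈ K, g * k * g⁻¹ ∈ K) :
    ∀ s ∈ ⁅K, K⁆, g * s * g⁻¹ ∈ ⁅K, K⁆ := by
  intro s hs
  have hle : K.map (MulAut.conj g).toMonoidHom ≤ K := by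
    rintro _ ⟨k, hk, rfl⟩
    exact hg k hk
  have h1 : (⁅K, K⁆).map (MulAut.conj g).toMonoidHom ≤ ⁅K, K⁆ := by
    rw [Subgroup.map_commutator]
    exact Subgroup.commutator_mono hle hle
  exact h1 ⟨s, hs, by simp [MulAut.conj_apply]⟩

theorem addSubgroup_card_lt {W' W : AddSubgroup V} (hle : W' ≤ W) (hne : W' ≠ W) :
    Nat.card W' < Nat.card W := by
  by_contra hcon
  exact hne (AddSubgroup.eq_of_le_of_card_ge hle (not_lt.mp hcon))

theorem tf_aux (R : Subgroup G) : ∀ n : ℕ, ∀ (K : Subgroup G) (W : AddSubgroup V),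
    Nat.card K + Nat.card W = n → Hyp R K W →
    Nat.card W = Nat.card (fixIn R W) ^ Nat.card R := by
  intro n
  induction n using Nat.strong_induction_on with
  | _ n IH =>
  intro K W hn h
  by_cases hW : W = ⊥
  · have h1 : fixIn R W = ⊥ := by
      rw [eq_bot_iff, ← hW]
      exact fixIn_le R W
    rw [h1, hW]
    simp
  have hK : K ≠ ⊥ := by
    intro hK
    apply hW
    rw [AddSubgroup.eq_bot_iff_forall]
    intro w hw
    refine h.fix w hw fun k hk => ?_
    rw [hK, Subgroup.mem_bot] at hk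
    rw [hk, one_smul]
  have hK1le : ⁅K, K⁆ ≤ K := Subgroup.commutator_le_self K
  have hK1lt : Nat.card ↥⁅K, K⁆ < Nat.card K := by
    by_contra hcon
    exact h.solv K le_rfl hK (Subgroup.eq_of_le_of_card_ge hK1le (not_lt.mp hcon))
  have hcop1 : (Nat.card ↥⁅K, K⁆).Coprime (Nat.card V) :=
    Nat.Coprime.coprime_dvd_left (Subgroup.card_dvd_of_le hK1le) h.copK
  have hKn : ∀ g ∈ K, ∀ s ∈ ⁅K, K⁆, g * s * g⁻¹ ∈ ⁅K, K⁆ := fun g hg =>
    conj_mem_commutator K fun k hk => K.mul_mem (K.mul_mem hg hk) (K.inv_mem hg)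
  have hRn : ∀ g ∈ R, ∀ s ∈ ⁅K, K⁆, g * s * g⁻¹ ∈ ⁅K, K⁆ := fun g hg =>
    conj_mem_commutator K (h.rk g hg)
  obtain ⟨hy1, hy2, hcomb⟩ := h.split (sig ⁅K, K⁆) (Nat.card ↥⁅K, K⁆) hcop1
    (fun w hw => sig_mem _ (fun s hs => h.kW s (hK1le hs)) hw)
    (fun w _ => sig_sig _ w)
    (fun k hk w _ => (smul_sig_comm _ (hKn k hk) w).symm)
    (fun r hr w _ => (smul_sig_comm _ (hRn r hr) w).symm)
  by_cases hW1 : W ⊓ (sig ⁅K, K⁆ - Nat.card ↥⁅K, K⁆ • AddMonoidHom.id V).ker = W
  · -- the commutator subgroup acts trivially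
    have hfixK1 : ∀ s ∈ ⁅K, K⁆, ∀ w ∈ W, s • w = w := by
      intro s hs w hw
      have h1 : sig ⁅K, K⁆ w = Nat.card ↥⁅K, K⁆ • w := by
        rw [← hW1] at hw
        exact (mem_E1 _ _ _).1 hw.2
      have h2 : Nat.card ↥⁅K, K⁆ • (s • w - w) = 0 := by
        rw [smul_sub, ← smul_nsmul', ← h1, smul_sig _ hs, sub_self]
      exact sub_eq_zero.mp (eq_zero_of_nsmul hcop1 h2)
    have hC : ∀ a ∈ K, ∀ b ∈ K, ∀ w ∈ W, a • b • w = b • a • w := by
      intro a ha b hb w hw
      have h1 : a * b = b * a * ⁅a⁻¹, b⁻¹⁆ := by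
        rw [commutatorElement_def]; group
      rw [smul_smul, h1, mul_smul, hfixK1 _ (Subgroup.commutator_mem_commutator (K.inv_mem ha)
        (K.inv_mem hb)) w hw, mul_smul]
    obtain ⟨H, hHK, hex, hM⟩ := exists_max_fix K W hW
    have L : Loc R K H W := { h with hC := hC, hHK := hHK, hM := hM }
    obtain ⟨hz1, hz2, hcomb2⟩ := h.split (eop R H) _ L.copc (fun w hw => L.eop_mem hw)
      (fun w hw => L.eop_eop hw) (fun k hk w hw => L.eop_smul_K hk hw)
      (fun r hr w _ => eop_smul R H hr w)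
    have hcard := card_split (eop R H) _ L.copc W (fun w hw => L.eop_mem hw)
      (fun w hw => L.eop_eop hw)
    by_cases hW2 : W ⊓ (eop R H).ker = ⊥
    · apply L.final hex
      rw [hW2] at hcard
      have h1 : W ⊓ (eop R H - (Nat.card ↥(R ⊓ Subgroup.normalizer (H : Set G)) * Nat.card H) •
          AddMonoidHom.id V).ker = W := by
        apply AddSubgroup.eq_of_le_of_card_ge inf_le_left
        rw [hcard]
        simp
      intro w hw
      rw [← h1] at hw
      exact (mem_E1 _ _ _).1 hw.2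
    · have hA : W ⊓ (eop R H - (Nat.card ↥(R ⊓ Subgroup.normalizer (H : Set G)) * Nat.card H) •
          AddMonoidHom.id V).ker ≠ ⊥ := by
        obtain ⟨w0, hw0, hw0', hw0H⟩ := hex
        intro hbot
        apply hw0'
        have : w0 ∈ W ⊓ (eop R H - (Nat.card ↥(R ⊓ Subgroup.normalizer (H : Set G)) *
            Nat.card H) • AddMonoidHom.id V).ker :=
          ⟨hw0, (mem_E1 _ _ _).2 (L.eop_fix ⟨hw0, hw0H⟩)⟩
        rw [hbot] at this
        exact this
      have hA2 := (AddSubgroup.one_lt_card_iff_ne_bot _).2 hA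
      have hB2 := (AddSubgroup.one_lt_card_iff_ne_bot _).2 hW2
      apply hcomb2
      · refine IH _ ?_ K _ rfl hz1
        rw [← hn, hcard]
        nlinarith
      · refine IH _ ?_ K _ rfl hz2
        rw [← hn, hcard]
        nlinarith
  · apply hcomb
    · refine IH _ ?_ K _ rfl hy1
      rw [← hn]
      exact Nat.add_lt_add_left (addSubgroup_card_lt inf_le_left hW1) _
    · refine IH _ ?_ ⁅K, K⁆ _ rfl
        { rk := hRn
          fpf := fun r hr hr1 k hk => h.fpf r hr hr1 k (hK1le hk)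
          solv := fun L hL => h.solv L (hL.trans hK1le)
          kW := fun k hk => hy2.kW k (hK1le hk)
          rW := hy2.rW
          copK := hcop1
          copR := h.copR
          fix := ?_ }
      · rw [← hn]
        exact Nat.add_lt_add_of_lt_of_le hK1lt (AddSubgroup.card_le_of_le inf_le_left)
      · intro w hw hfix
        have h1 := sig_of_fixed _ hfix
        rw [AddMonoidHom.mem_ker.1 hw.2] at h1
        exact eq_zero_of_nsmul hcop1 h1.symm

theorem solv_of_isSolvable (K : Subgroup G) (hK : Group.IsSolvable K) :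
    ∀ L : Subgroup G, L ≤ K → L ≠ ⊥ → ⁅L, L⁆ ≠ L := by
  intro L hL hL1 heq
  have hs : Group.IsSolvable L := Group.isSolvable_of_isSolvable_injective (Subgroup.inclusion_injective hL)
  have hn : Nontrivial L := (Subgroup.nontrivial_iff_ne_bot L).2 hL1
  have h1 := Group.IsSolvable.commutator_lt_top_of_nontrivial L
  apply h1.ne
  apply Subgroup.map_injective L.subtype_injective
  rw [Subgroup.map_subtype_commutator, heq, ← MonoidHom.range_eq_map, Subgroup.range_subtype]

/-- **Fixed points of a Frobenius complement** on a coprime module without kernel fixed points. -/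
theorem tf (K R : Subgroup G) (W : AddSubgroup V) (hRK : ∀ r ∈ R, ∀ k ∈ K, r * k * r⁻¹ ∈ K)
    (hfpf : ∀ r ∈ R, r ≠ 1 → ∀ k ∈ K, r * k = k * r → k = 1) (hsolv : Group.IsSolvable K)
    (hKW : ∀ k ∈ K, ∀ w ∈ W, k • w ∈ W) (hRW : ∀ r ∈ R, ∀ w ∈ W, r • w ∈ W)
    (hcopK : (Nat.card K).Coprime (Nat.card V)) (hcopR : (Nat.card R).Coprime (Nat.card V))
    (hfix : ∀ w ∈ W, (∀ k ∈ K, k • w = w) → w = 0) :
    Nat.card W = Nat.card (fixIn R W) ^ Nat.card R :=
  tf_aux R _ K W rfl
    { rk := hRK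
      fpf := hfpf
      solv := solv_of_isSolvable K hsolv
      kW := hKW
      rW := hRW
      copK := hcopK
      copR := hcopR
      fix := hfix }

theorem card_fixIn_top (S : Subgroup G) :
    Nat.card (fixIn S (⊤ : AddSubgroup V)) = Nat.card {v : V // ∀ g ∈ S, g • v = v} :=
  Nat.card_congr (Equiv.subtypeEquivRight fun v => by simp [mem_fixIn])

theorem mem_E1_sig (K : Subgroup G) (hcop : (Nat.card K).Coprime (Nat.card V)) (v : V) :
    v ∈ (sig K - Nat.card K • AddMonoidHom.id V).ker ↔ ∀ k ∈ K, k • v = v := by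
  rw [mem_E1]
  refine ⟨fun h1 s hs => ?_, fun h => sig_of_fixed K h⟩
  have h2 : Nat.card K • (s • v - v) = 0 := by
    rw [smul_sub, ← smul_nsmul', ← h1, smul_sig _ hs, sub_self]
  exact sub_eq_zero.mp (eq_zero_of_nsmul hcop h2)

/-- **The fixed point formula for Frobenius groups**, module version. -/
theorem module_formula (K R : Subgroup G) (hRK : ∀ r ∈ R, ∀ k ∈ K, r * k * r⁻¹ ∈ K)
    (hfpf : ∀ r ∈ R, r ≠ 1 → ∀ k ∈ K, r * k = k * r → k = 1) (hsolv : Group.IsSolvable K)
    (hcop : (Nat.card K * Nat.card R).Coprime (Nat.card V)) :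
    Nat.card {v : V // ∀ g ∈ K ⊔ R, g • v = v} ^ Nat.card R * Nat.card V =
      Nat.card {v : V // ∀ g ∈ R, g • v = v} ^ Nat.card R *
        Nat.card {v : V // ∀ g ∈ K, g • v = v} := by
  have hcopK : (Nat.card K).Coprime (Nat.card V) := Nat.Coprime.coprime_mul_right hcop
  have hcopR : (Nat.card R).Coprime (Nat.card V) := Nat.Coprime.coprime_mul_left hcop
  have hcomm : ∀ r ∈ R, ∀ v : V, sig K (r • v) = r • sig K v :=
    fun r hr v => (smul_sig_comm K (hRK r hr) v).symm
  have hcommK : ∀ r ∈ K, ∀ v : V, sig K (r • v) = r • sig K v :=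
    fun r hr v => (smul_sig_comm K
      (fun k hk => K.mul_mem (K.mul_mem hr hk) (K.inv_mem hr)) v).symm
  have h1 := card_split (sig K) (Nat.card K) hcopK (⊤ : AddSubgroup V)
    (fun _ _ => AddSubgroup.mem_top _) (fun w _ => sig_sig K w)
  have h2 := card_split (sig K) (Nat.card K) hcopK (fixIn R (⊤ : AddSubgroup V))
    (fun w hw => ⟨AddSubgroup.mem_top _, fun r hr => by rw [← hcomm r hr, hw.2 r hr]⟩)
    (fun w _ => sig_sig K w)
  have h3 := tf K R ((⊤ : AddSubgroup V) ⊓ (sig K).ker) hRK hfpf hsolv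
    (fun k hk w hw => AddSubgroup.mem_inf.2 ⟨AddSubgroup.mem_top _, by
      rw [AddMonoidHom.mem_ker, hcommK k hk, AddMonoidHom.mem_ker.1 hw.2, smul_zero]⟩)
    (fun k hk w hw => AddSubgroup.mem_inf.2 ⟨AddSubgroup.mem_top _, by
      rw [AddMonoidHom.mem_ker, hcomm k hk, AddMonoidHom.mem_ker.1 hw.2, smul_zero]⟩)
    hcopK hcopR
    (fun w hw hfix => by
      have h4 := sig_of_fixed _ hfix
      rw [AddMonoidHom.mem_ker.1 hw.2] at h4
      exact eq_zero_of_nsmul hcopK h4.symm)
  rw [fixIn_inf] at h3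
  have e1 : Nat.card (⊤ : AddSubgroup V) = Nat.card V :=
    Nat.card_congr AddSubgroup.topEquiv.toEquiv
  have e2 : Nat.card ↥((⊤ : AddSubgroup V) ⊓ (sig K - Nat.card K • AddMonoidHom.id V).ker) =
      Nat.card {v : V // ∀ g ∈ K, g • v = v} :=
    Nat.card_congr (Equiv.subtypeEquivRight fun v => by
      rw [AddSubgroup.mem_inf, mem_E1_sig K hcopK]
      simp)
  have e3 : Nat.card ↥(fixIn R (⊤ : AddSubgroup V) ⊓
      (sig K - Nat.card K • AddMonoidHom.id V).ker) =
      Nat.card {v : V // ∀ g ∈ K ⊔ R, g • v = v} :=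
    Nat.card_congr (Equiv.subtypeEquivRight fun v => by
      rw [AddSubgroup.mem_inf, mem_E1_sig K hcopK, mem_fixIn]
      constructor
      · rintro ⟨⟨_, hR⟩, hK⟩ g hg
        have : K ⊔ R ≤ MulAction.stabilizer G v :=
          sup_le (fun k hk => MulAction.mem_stabilizer_iff.2 (hK k hk))
            (fun k hk => MulAction.mem_stabilizer_iff.2 (hR k hk))
        exact MulAction.mem_stabilizer_iff.1 (this hg)
      · intro h
        exact ⟨⟨AddSubgroup.mem_top _, fun r hr => h r (Subgroup.mem_sup_right hr)⟩,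
          fun k hk => h k (Subgroup.mem_sup_left hk)⟩)
  rw [← e1, h1, ← card_fixIn_top R, h2, e2, e3, h3, mul_pow]
  ring

end Cfsg.Agent.Lib.Helper29.FrobFix
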