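/-
Helper library (helper29): counting homomorphisms into a cyclic group; index bounds by fibres.
-/
import Mathlib

set_option autoImplicit false

namespace Cfsg.Agent.Lib.Helper29

/-- a finite group `E` has at most `|E / E'|` homomorphisms into a finite cyclic group. -/
theorem card_monoidHom_le_card_abelianization (E Z : Type*) [Group E] [Finite E] [Group Z] [Finite Z]
    [IsCyclic Z] : Nat.card (E →* Z) ≤ Nat.card (Abelianization E) := by
  classical
  have hn : NeZero (Nat.card Z) := ⟨Nat.card_pos.ne'⟩
  obtain ⟨ι, hι⟩ : ∃ ι : Z →* ℂˣ, Function.Injective ι := by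
    have e : Z ≃* rootsOfUnity (Nat.card Z) ℂ := mulEquivOfCyclicCardEq (by
      rw [HasEnoughRootsOfUnity.natCard_rootsOfUnity])
    exact ⟨(rootsOfUnity _ ℂ).subtype.comp e.toMonoidHom,
      (Subgroup.subtype_injective _).comp e.injective⟩
  have h3 := CommGroup.card_monoidHom_of_hasEnoughRootsOfUnity (Abelianization E) ℂ
  have h2 : Nat.card (E →* ℂˣ) = Nat.card (Abelianization E →* ℂˣ) := Nat.card_congr Abelianization.lift
  have hfin : Finite (E →* ℂˣ) := by
    apply Nat.finite_of_card_ne_zero
    rw [h2, h3]; exact Nat.card_pos.ne'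
  have h1 : Nat.card (E →* Z) ≤ Nat.card (E →* ℂˣ) :=
    Nat.card_le_card_of_injective (fun f => ι.comp f) (by
      intro f g hfg
      ext x
      exact hι (DFunLike.congr_fun hfg x))
  rw [← h3, ← h2]; exact h1

/-- if the fibres of `φ : G → α` lie in left cosets of `C`, then `[G : C] ≤ |α|`. -/
theorem index_le_card_of_fiber {G α : Type*} [Group G] (C : Subgroup G) [Finite α] (φ : G → α)
    (hφ : ∀ a b, φ a = φ b → a⁻¹ * b ∈ C) : C.index ≤ Nat.card α := by
  apply Nat.card_le_card_of_injective (fun q : G ⧸ C => φ q.out)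
  intro q1 q2 h
  have := hφ _ _ h
  rw [← QuotientGroup.eq, QuotientGroup.out_eq', QuotientGroup.out_eq'] at this
  exact this

end Cfsg.Agent.Lib.Helper29
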